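import Mathlib

/-!
Eigenspaces of elements normalising an absolutely irreducible group of class two.
-/

set_option autoImplicit false

namespace Cfsg.Agent.Class.C6

open Module Matrix

section Form

variable {H A : Type*} [Group H] [AddCommGroup A]

/-- An alternating bi-additive pairing on a group, invariant under `σ`. -/
structure AltP (B : H → H → A) (σ : MulAut H) : Prop where
  mul_left : ∀ x y z, B (x * y) z = B x z + B y z
  self : ∀ x, B x x = 0
  anti : ∀ x y, B x y = -B y x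
  inv : ∀ x y, B (σ x) (σ y) = B x y

variable {B : H → H → A} {σ : MulAut H}

theorem AltP.mul_right (h : AltP B σ) (x y z : H) : B x (y * z) = B x y + B x z := by
  rw [h.anti, h.mul_left, h.anti y, h.anti z]; abel

theorem AltP.one_left (h : AltP B σ) (y : H) : B 1 y = 0 := by
  have := h.mul_left 1 1 y
  rw [one_mul] at this
  exact left_eq_add.1 this

theorem AltP.inv_left (h : AltP B σ) (x y : H) : B x⁻¹ y = -B x y := by
  have := h.mul_left x⁻¹ x y
  rw [inv_mul_cancel, h.one_left] at this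
  exact eq_neg_of_add_eq_zero_left this.symm

theorem AltP.inv_right (h : AltP B σ) (x y : H) : B x y⁻¹ = -B x y := by
  rw [h.anti, h.inv_left, neg_neg, h.anti y]

theorem AltP.pow_right (h : AltP B σ) (x y : H) (k : ℕ) : B x (y ^ k) = k • B x y := by
  induction k with
  | zero => rw [pow_zero, h.anti, h.one_left, neg_zero, zero_smul]
  | succ k ih => rw [pow_succ, h.mul_right, ih, succ_nsmul]

theorem AltP.pow (h : AltP B σ) (k : ℕ) (x y : H) : B ((σ ^ k) x) ((σ ^ k) y) = B x y := by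
  induction k with
  | zero => rfl
  | succ k ih => rw [pow_succ', MulAut.mul_apply, MulAut.mul_apply, h.inv, ih]

theorem seq_lin {s : ℕ → A} {e : A} (h : ∀ m, s (m + 1) = s m + e) (m : ℕ) : s m = s 0 + m • e := by
  induction m with
  | zero => simp
  | succ m ih => rw [h, ih, succ_nsmul, add_assoc]

theorem eq_zero_of_coprime {a b : ℕ} (h : a.Coprime b) {e : A} (h1 : a • e = 0) (h2 : b • e = 0) :
    e = 0 := by
  have h3 := Nat.dvd_gcd (addOrderOf_dvd_of_nsmul_eq_zero h1) (addOrderOf_dvd_of_nsmul_eq_zero h2)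
  rw [h, Nat.dvd_one] at h3
  exact AddMonoid.addOrderOf_eq_one_iff.1 h3

theorem AltP.triv_of_coprime (h : AltP B σ) {r w : ℕ} (hr : ∀ x y, r • B x y = 0) (hw : Odd w)
    (hc : w.Coprime r) (hσ : ∀ x y, B x ((σ ^ w) y) = B x y)
    (H0 : ∀ x, B (σ x * x⁻¹) (σ (σ x * x⁻¹)) = 0) (x y : H) : B x (σ y) = B x y := by
  have H1 : ∀ x, B (σ x) (σ (σ x)) - B (σ x) (σ x) - B x (σ (σ x)) + B x (σ x) = 0 := fun x => by
    have := H0 x
    simp only [map_mul, map_inv, h.mul_left, h.mul_right, h.inv_left, h.inv_right] at this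
    rw [← this]; abel
  have H2 : ∀ x l, -B x (σ (σ (σ (σ l)))) + 2 • B x (σ (σ (σ l))) - 2 • B x (σ l) + B x l = 0 := by
    intro x l
    obtain ⟨x', hx⟩ : ∃ x', x' = σ.symm (σ.symm x) := ⟨_, rfl⟩
    have hx' : x = σ (σ x') := by simp [hx]
    have h1 := H1 (x' * l)
    have h2 := H1 x'
    have h3 := H1 l
    simp only [map_mul, h.mul_left, h.mul_right] at h1
    have e1 : B (σ x') (σ (σ l)) = B x (σ (σ (σ l))) := by rw [hx', h.inv (σ x')]
    have e2 : B (σ x') (σ l) = B x (σ (σ l)) := by rw [hx', h.inv (σ x')]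
    have e3 : B x' (σ (σ l)) = B x (σ (σ (σ (σ l)))) := by rw [hx', h.inv (σ x'), h.inv x']
    have e4 : B x' (σ l) = B x (σ (σ (σ l))) := by rw [hx', h.inv (σ x'), h.inv x']
    have e5 : B (σ l) (σ (σ x')) = -B x (σ l) := by rw [hx', h.anti]
    have e6 : B (σ l) (σ x') = -B x (σ (σ l)) := by rw [hx', h.anti, h.inv (σ x')]
    have e7 : B l (σ (σ x')) = -B x l := by rw [hx', h.anti]
    have e8 : B l (σ x') = -B x (σ l) := by rw [hx', h.anti, h.inv (σ x')]
    rw [e1, e2, e3, e4, e5, e6, e7, e8] at h1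
    rw [← h1, ← sub_eq_zero, ← neg_zero, ← add_zero (0 : A)]
    nth_rewrite 1 [← h2]
    rw [← h3]
    abel
  let ψ : ℕ → A := fun m => B x ((σ ^ m) y)
  have hψ : ∀ m, ψ (m + w) = ψ m := fun m => by
    simp only [ψ]
    rw [add_comm, pow_add, MulAut.mul_apply, hσ]
  have hs : ∀ m, (σ ^ (m + 1)) y = σ ((σ ^ m) y) := fun m => by rw [pow_succ', MulAut.mul_apply]
  have H3 : ∀ m, -ψ (m + 4) + 2 • ψ (m + 3) - 2 • ψ (m + 1) + ψ m = 0 := fun m => by
    have := H2 x ((σ ^ m) y)
    rwa [← hs, ← hs, ← hs, ← hs] at this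
  let δ : ℕ → A := fun m => ψ (m + 2) - ψ m
  have hδ : ∀ m, δ (m + w) = δ m := fun m => by
    simp only [δ]
    rw [add_right_comm, hψ, hψ]
  have H4 : ∀ m, δ (m + 1) = δ m + (δ 1 - δ 0) := fun m => by
    induction m with
    | zero => simp
    | succ m ih =>
      have e : δ (m + 1 + 1) = δ (m + 1) + (δ (m + 1) - δ m) := by
        have := H3 m
        simp only [δ]
        rw [← sub_eq_zero, ← neg_eq_zero, ← this]
        abel
      rw [e]
      congr 1
      rw [ih]; abel
  have hrψ : ∀ m, r • ψ m = 0 := fun m => hr _ _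
  have hrδ : ∀ m, r • δ m = 0 := fun m => by simp only [δ, smul_sub, hrψ, sub_zero]
  have H5 : δ 1 - δ 0 = 0 := by
    refine eq_zero_of_coprime hc ?_ (by rw [smul_sub, hrδ, hrδ, sub_zero])
    have := seq_lin H4 w
    rw [← zero_add w, hδ, zero_add] at this
    exact left_eq_add.1 this
  have H6 : ∀ m, δ m = δ 0 := fun m => by rw [seq_lin H4 m, H5, smul_zero, add_zero]
  have H7 : ∀ a m, ψ (a + 2 * m) = ψ a + m • δ 0 := fun a =>
    seq_lin (s := fun m => ψ (a + 2 * m)) fun m => by
      rw [← H6 (a + 2 * m)]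
      simp only [δ]
      rw [add_sub_cancel]
      rfl
  have H8 : δ 0 = 0 := by
    refine eq_zero_of_coprime hc ?_ (hrδ 0)
    have := H7 0 w
    rw [two_mul, ← add_assoc, hψ, hψ] at this
    exact left_eq_add.1 this
  obtain ⟨k, hk⟩ := hw
  have := H7 0 (k + 1)
  rw [H8, smul_zero, add_zero, show 0 + 2 * (k + 1) = 1 + w by omega, hψ] at this
  exact this

theorem AltP.exists_of_unip (h : AltP B σ) {r : ℕ} (hp : r.Prime) (hr : ∀ x y, r • B x y = 0)
    (hσ : ∀ x y, B x ((σ ^ r) y) = B x y) {x y : H} (hxy : B x (σ y) ≠ B x y) :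
    ∃ l, (∃ x, B x (σ l * l⁻¹) ≠ 0) ∧ ∀ x, B x (σ (σ l * l⁻¹) * (σ l * l⁻¹)⁻¹) = 0 := by
  classical
  let N : H → H := fun l => σ l * l⁻¹
  have h1 : ∀ j x m, B x ((σ ^ m) (N^[j] y)) =
      (fwdDiff 1)^[j] (fun m => B x ((σ ^ m) y)) m := fun j x => by
    induction j with
    | zero => intro m; rfl
    | succ j ih =>
      intro m
      rw [Function.iterate_succ_apply', Function.iterate_succ_apply', fwdDiff, ← ih, ← ih]
      simp only [N, map_mul, map_inv, h.mul_right, h.inv_right]
      rw [pow_succ, MulAut.mul_apply, sub_eq_add_neg]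
  have h2 : ∀ x, B x (N^[r] y) = 0 := fun x => by
    have := h1 r x 0
    rw [pow_zero, MulAut.one_apply, fwdDiff_iter_eq_sum_shift] at this
    rw [this]
    obtain ⟨s, rfl⟩ : ∃ s, r = s + 1 := ⟨r - 1, (Nat.succ_pred_eq_of_pos hp.pos).symm⟩
    rw [Finset.sum_range_succ, Finset.sum_range_succ', Finset.sum_eq_zero]
    · simp only [zero_add, smul_eq_mul, mul_one, hσ, Nat.choose_self, Nat.choose_zero_right,
        Nat.cast_one, tsub_self, pow_zero, tsub_zero, MulAut.one_apply, one_smul]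
      rcases hp.eq_two_or_odd' with e | e
      · have := hr x y
        rw [e] at this ⊢
        simpa [two_smul] using this
      · simp [e.neg_one_pow]
    · intro i hi
      obtain ⟨c, hc⟩ := hp.dvd_choose_self (k := i + 1) i.succ_ne_zero
        (by simpa using Finset.mem_range.1 hi)
      rw [hc, Nat.cast_mul, mul_left_comm, mul_comm, mul_smul, natCast_zsmul, hr, smul_zero]
  have h3 : ∃ j, ∀ x, B x (N^[j + 1] y) = 0 :=
    ⟨r - 1, by rwa [Nat.sub_add_cancel hp.pos]⟩
  have h4 : Nat.find h3 ≠ 0 := fun e => by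
    have := Nat.find_spec h3 x
    rw [e] at this
    simp only [zero_add, Function.iterate_one, N, h.mul_right, h.inv_right] at this
    exact hxy (add_neg_eq_zero.1 this)
  obtain ⟨j, hj⟩ := Nat.exists_eq_succ_of_ne_zero h4
  have h5 := Nat.find_spec h3
  have h6 := Nat.find_min h3 (m := j) (by omega)
  rw [hj] at h5
  refine ⟨N^[j] y, ?_, fun x => ?_⟩
  · rw [Function.iterate_succ_apply'] at h6
    exact not_forall.1 h6
  · have := h5 x
    rwa [Function.iterate_succ_apply', Function.iterate_succ_apply'] at this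

end Form

section Lin

variable {F V : Type*} [Field F] [AddCommGroup V] [Module F V] [FiniteDimensional F V]

theorem sum_finrank_eigen_le {κ : Type*} [Fintype κ] (f : End F V) {μ : κ → F}
    (hμ : Function.Injective μ) {E : κ → Submodule F V} (hE : ∀ i, E i ≤ f.eigenspace (μ i))
    {K : Submodule F V} (hK : ∀ i, E i ≤ K) : ∑ i, finrank F (E i) ≤ finrank F K := by
  classical
  have h : iSupIndep E := (f.eigenspaces_iSupIndep.comp hμ).mono hE
  rw [← finrank_directSum, ← LinearMap.finrank_range_of_inj (f := DirectSum.coeLinearMap E)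
    h.dfinsupp_lsum_injective, DirectSum.range_coeLinearMap]
  exact Submodule.finrank_mono (iSup_le hK)

theorem finrank_le_of_map {y : End F V} (hy : Function.Injective y) {U U' : Submodule F V}
    (h : ∀ v ∈ U, y v ∈ U') : finrank F U ≤ finrank F U' := by
  rw [(Submodule.equivMapOfInjective y hy U).finrank_eq]
  exact Submodule.finrank_mono (Submodule.map_le_iff_le_comap.2 h)

theorem two_mul_finrank_le {y : End F V} (hy : Function.Injective y) {W U : Submodule F V}
    (h : ∀ w ∈ W, y w ∈ W → y w ∈ U) : 2 * finrank F W ≤ finrank F V + finrank F U := by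
  have h1 := Submodule.finrank_sup_add_finrank_inf_eq W (W.map y)
  have h2 := (Submodule.equivMapOfInjective y hy W).finrank_eq
  have h3 := Submodule.finrank_le (W ⊔ W.map y)
  have h4 : finrank F (W ⊓ W.map y : Submodule F V) ≤ finrank F U :=
    Submodule.finrank_mono (by rintro _ ⟨h5, w, hw, rfl⟩; exact h w hw h5)
  omega

theorem mul_finrank_eigen_le {k y : End F V} (hy : Function.Injective y) {ζ : F} {r : ℕ}
    (hζ : IsPrimitiveRoot ζ r) (h : k * y = ζ • (y * k)) {a : F} (ha : a ≠ 0) :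
    r * finrank F (k.eigenspace a) ≤ finrank F V := by
  have h1 : ∀ j : ℕ, finrank F (k.eigenspace a) ≤ finrank F (k.eigenspace (ζ ^ j * a)) := fun j => by
    induction j with
    | zero => rw [pow_zero, one_mul]
    | succ j ih =>
      refine ih.trans (finrank_le_of_map hy fun v hv => ?_)
      rw [End.mem_eigenspace_iff] at hv ⊢
      rw [← End.mul_apply, h, LinearMap.smul_apply, End.mul_apply, hv, map_smul, smul_smul,
        pow_succ', mul_assoc]
  have h2 := sum_finrank_eigen_le k (μ := fun j : Fin r => ζ ^ (j : ℕ) * a)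
    (fun i j e => Fin.ext (hζ.pow_inj i.2 j.2 (mul_right_cancel₀ ha e))) (fun _ => le_rfl)
    (K := ⊤) fun _ => le_top
  rw [finrank_top] at h2
  refine le_trans ?_ h2
  simpa using Finset.card_nsmul_le_sum Finset.univ
    (fun j : Fin r => finrank F (k.eigenspace (ζ ^ (j : ℕ) * a))) _ fun j _ => h1 j

theorem finrank_le_sum_eigen {k : End F V} {W : Submodule F V} (hW : ∀ v ∈ W, k v ∈ W)
    (s : Multiset F) (hs : ∀ v ∈ W, Polynomial.aeval k (s.map fun a =>
      Polynomial.X - Polynomial.C a).prod v = 0) :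
    finrank F W ≤ (s.map fun a => finrank F (W ⊓ k.eigenspace a : Submodule F V)).sum := by
  induction s using Multiset.induction_on generalizing W with
  | empty =>
    have : W = ⊥ := (Submodule.eq_bot_iff _).2 (by simpa using hs)
    simp [this]
  | cons a s ih =>
    let u : End F V := k - a • 1
    have h1 := LinearMap.finrank_range_add_finrank_ker (u.domRestrict W)
    rw [LinearMap.range_domRestrict] at h1
    have h2 : finrank F (LinearMap.ker (u.domRestrict W)) ≤
        finrank F (W ⊓ k.eigenspace a : Submodule F V) := by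
      rw [(Submodule.equivMapOfInjective W.subtype W.subtype_injective _).finrank_eq]
      refine Submodule.finrank_mono ?_
      rintro _ ⟨w, hw, rfl⟩
      exact ⟨w.2, End.mem_eigenspace_iff.2 (by simpa [u, sub_eq_zero] using hw)⟩
    have hu : ∀ v ∈ W, u v ∈ W := fun v hv => by
      simpa [u] using W.sub_mem (hW v hv) (W.smul_mem a hv)
    have h3 := ih (W := W.map u) (by
      rintro _ ⟨w, hw, rfl⟩
      exact ⟨k w, hW w hw, by simp [u]⟩) (by
      rintro _ ⟨w, hw, rfl⟩
      have := hs w hw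
      rw [Multiset.map_cons, Multiset.prod_cons, mul_comm, map_mul, End.mul_apply] at this
      simpa [u, Algebra.algebraMap_eq_smul_one] using this)
    have h4 : (s.map fun a => finrank F (W.map u ⊓ k.eigenspace a : Submodule F V)).sum ≤
        (s.map fun a => finrank F (W ⊓ k.eigenspace a : Submodule F V)).sum :=
      Multiset.sum_map_le_sum_map _ _ fun b _ => Submodule.finrank_mono
        (inf_le_inf_right _ (Submodule.map_le_iff_le_comap.2 hu))
    rw [Multiset.map_cons, Multiset.sum_cons]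
    omega

theorem tri_inj {r : ℕ} (hr : r.Prime) {i j : ℕ} (hi : i < r) (hj : j < r)
    (hs : (i + j + 1 < r) ∨ r < i + j + 1) (h : i * (i + 1) / 2 ≡ j * (j + 1) / 2 [MOD r]) :
    i = j := by
  have h3 := h.mul_left 2
  rw [Nat.two_mul_div_two_of_even (Nat.even_mul_succ_self i),
    Nat.two_mul_div_two_of_even (Nat.even_mul_succ_self j)] at h3
  have h4 : (r : ℤ) ∣ ((j : ℤ) - i) * (i + j + 1) := by
    have := h3.dvd
    push_cast at this
    convert this using 1
    ring
  rcases (Nat.prime_iff_prime_int.1 hr).dvd_or_dvd h4 with h5 | h5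
  · have := Int.eq_zero_of_abs_lt_dvd h5 (by rw [abs_lt]; constructor <;> omega)
    omega
  · obtain ⟨c, hc⟩ := h5
    have h6 : (0 : ℤ) < c := by
      by_contra e
      nlinarith [hr.pos]
    have h7 : c < 2 := by
      by_contra e
      nlinarith [hr.pos]
    obtain rfl : c = 1 := by omega
    omega

theorem two_mul_finrank_le_of_weights {g k h y : End F V} (hh : Function.Injective h)
    (hy : Function.Injective y) {ζ : F} {r t : ℕ} (hr : r.Prime) (h5 : 5 ≤ r)
    (hζ : IsPrimitiveRoot ζ r) (h1 : k * y = ζ • (y * k)) (h2 : g * k = k * g)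
    (h3 : g * h = k * h * g) (h4 : k * h = ζ ^ t • (h * k)) (hk : k ^ r = 1) {c : F} (hc : c ≠ 0) :
    2 * finrank F (g.eigenspace c) ≤ finrank F V := by
  have hz := hζ.ne_zero hr.ne_zero
  let m : F → F → ℕ := fun a b => finrank F (g.eigenspace a ⊓ k.eigenspace b : Submodule F V)
  have m1 : ∀ a b, m a b ≤ m (ζ ^ t * b * a) (ζ ^ t * b) := fun a b =>
    finrank_le_of_map hh fun v ⟨hv1, hv2⟩ => by
      have e1 := End.mem_eigenspace_iff.1 hv1
      have e2 := End.mem_eigenspace_iff.1 hv2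
      have e3 : k (h v) = (ζ ^ t * b) • h v := by
        rw [← End.mul_apply, h4, LinearMap.smul_apply, End.mul_apply, e2, map_smul, smul_smul]
      refine ⟨End.mem_eigenspace_iff.2 ?_, End.mem_eigenspace_iff.2 e3⟩
      rw [← End.mul_apply, h3, End.mul_apply, End.mul_apply, e1, map_smul, map_smul, e3, smul_smul,
        mul_comm a]
  have m2 : ∀ {κ : Type} [Fintype κ] {μ : κ → F}, Function.Injective μ → ∀ b,
      ∑ i, m (μ i) b ≤ finrank F (k.eigenspace b) := fun hμ b =>
    sum_finrank_eigen_le g hμ (fun _ => inf_le_left) fun _ => inf_le_right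
  have m3 : ∀ b, b ≠ 0 → r * finrank F (k.eigenspace b) ≤ finrank F V := fun b hb =>
    mul_finrank_eigen_le hy hζ h1 hb
  have m4 : ∀ ξ, IsPrimitiveRoot ξ r →
      finrank F (g.eigenspace c) ≤ ∑ j ∈ Finset.range r, m c (ξ ^ j) := fun ξ hξ => by
    have := finrank_le_sum_eigen (k := k) (W := g.eigenspace c) (fun v hv => by
      rw [End.mem_eigenspace_iff] at hv ⊢
      rw [← End.mul_apply, h2, End.mul_apply, hv, map_smul])
      ((Finset.range r).val.map fun j => ξ ^ j) fun v _ => by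
        have e := X_pow_sub_C_eq_prod hξ hr.pos (one_pow r)
        simp only [mul_one] at e
        rw [Multiset.map_map]
        change Polynomial.aeval k (∏ j ∈ Finset.range r, (Polynomial.X - Polynomial.C (ξ ^ j))) v = 0
        rw [← e]
        simp [hk]
    rwa [Multiset.map_map] at this
  by_cases ht : r ∣ t
  · have e : ζ ^ t = 1 := (hζ.pow_eq_one_iff_dvd t).2 ht
    simp only [e, one_mul] at m1
    have m5 : ∀ j, 0 < j → j < r → 3 * m c (ζ ^ j) ≤ finrank F (k.eigenspace (ζ ^ j)) :=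
      fun j hj hj' => by
      have hξ := hζ.pow_of_coprime j (Nat.coprime_of_lt_prime hj.ne' hj' hr).symm
      have := m2 (μ := fun i : Fin 3 => (ζ ^ j) ^ (i : ℕ) * c)
        (fun i i' e => Fin.ext (hξ.pow_inj (by omega) (by omega) (mul_right_cancel₀ hc e))) (ζ ^ j)
      rw [Fin.sum_univ_three] at this
      have e1 := m1 c (ζ ^ j)
      have e2 := m1 (ζ ^ j * c) (ζ ^ j)
      simp only [Fin.val_zero, pow_zero, one_mul, Fin.val_one, pow_one, Fin.val_two, pow_two,
        mul_assoc] at this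
      omega
    have m6 := m4 ζ hζ
    obtain ⟨s, rfl⟩ : ∃ s, r = s + 1 := ⟨r - 1, by omega⟩
    rw [Finset.sum_range_succ', pow_zero] at m6
    have m7 : m c 1 ≤ finrank F (k.eigenspace 1) := Submodule.finrank_mono inf_le_right
    have m8 := m3 1 one_ne_zero
    have m9 : (s + 1) * (3 * ∑ j ∈ Finset.range s, m c (ζ ^ (j + 1))) ≤ s * finrank F V := by
      rw [Finset.mul_sum, Finset.mul_sum]
      refine (Finset.sum_le_card_nsmul _ _ (finrank F V) fun j hj => ?_).trans (by simp)
      exact (Nat.mul_le_mul_left _ (m5 _ j.succ_pos (by simpa using hj))).trans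
        (m3 _ (pow_ne_zero _ hz))
    nlinarith
  · have hξ := hζ.pow_of_coprime t ((Nat.Prime.coprime_iff_not_dvd hr).2 ht).symm
    generalize ζ ^ t = ξ at hξ m1
    have hx := hξ.ne_zero hr.ne_zero
    have m5 : ∀ i j : ℕ, ∀ a, m a (ξ ^ j) ≤
        m (ξ ^ (i * j + i * (i + 1) / 2) * a) (ξ ^ (j + i)) := fun i j a => by
      induction i with
      | zero => simp
      | succ i ih =>
        refine ih.trans ((m1 _ _).trans (le_of_eq ?_))
        rw [← pow_succ', ← mul_assoc, ← pow_add]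
        have e1 := Nat.triangle_succ (i + 1)
        simp only [add_tsub_cancel_right] at e1
        rw [mul_comm (i + 1) (i + 1 + 1), e1, mul_comm i (i + 1), add_assoc j i]
        congr 3
        ring
    have m6 : ∀ i, i < r → m c (ξ ^ (r - 1 - i)) ≤ m ((ξ ^ (i * (i + 1) / 2))⁻¹ * c) 1 :=
      fun i hi => by
      have := m5 (i + 1) (r - 1 - i) c
      rw [show r - 1 - i + (i + 1) = r by omega, hξ.pow_eq_one] at this
      convert this using 3
      refine (eq_inv_of_mul_eq_one_left ?_).symm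
      rw [← pow_add, (hξ.pow_eq_one_iff_dvd _)]
      have e1 := Nat.triangle_succ (i + 1)
      simp only [add_tsub_cancel_right] at e1
      have e2 := Nat.two_mul_div_two_of_even (Nat.even_mul_succ_self i)
      refine ⟨i + 1, ?_⟩
      rw [mul_comm (i + 1) (i + 1 + 1), e1, mul_comm (i + 1) i]
      obtain ⟨d, rfl⟩ : ∃ d, r = d + 1 + i := ⟨r - 1 - i, by omega⟩
      rw [show d + 1 + i - 1 - i = d by omega]
      nlinarith
    have m7 : ∀ s : Finset ℕ, (∀ i ∈ s, i < r) → (∀ i ∈ s, ∀ j ∈ s, i + j + 1 = r → i = j) →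
        ∑ i ∈ s, m ((ξ ^ (i * (i + 1) / 2))⁻¹ * c) 1 ≤ finrank F (k.eigenspace 1) :=
      fun s hs hs' => by
      rw [← Finset.sum_coe_sort s]
      refine m2 (μ := fun i : s => (ξ ^ ((i : ℕ) * (i + 1) / 2))⁻¹ * c) (fun i j e => ?_) 1
      have e1 := inv_injective (mul_right_cancel₀ hc e)
      rw [(hξ.isOfFinOrder hr.ne_zero).pow_eq_pow_iff_modEq, ← hξ.eq_orderOf] at e1
      by_cases e2 : (i : ℕ) + j + 1 = r
      · exact Subtype.ext (hs' _ i.2 _ j.2 e2)
      · exact Subtype.ext (tri_inj hr (hs _ i.2) (hs _ j.2) (by omega) e1)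
    have m8 := m4 ξ hξ
    rw [← Finset.sum_range_reflect] at m8
    have m9 := m8.trans (Finset.sum_le_sum fun i hi => m6 i (Finset.mem_range.1 hi))
    rw [← Finset.sum_filter_add_sum_filter_not _ (fun i => 2 * i < r)] at m9
    have m10 := m7 ((Finset.range r).filter fun i => 2 * i < r) (by simp +contextual)
      (by simp only [Finset.mem_filter]; omega)
    have m11 := m7 ((Finset.range r).filter fun i => ¬ 2 * i < r) (by simp +contextual)
      (by simp only [Finset.mem_filter]; omega)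
    have m12 := m3 1 one_ne_zero
    nlinarith

end Lin

section Main

variable {F ι : Type*} [Field F] [Fintype ι] [DecidableEq ι] {M : Subgroup (GL ι F)} {r : ℕ}

/-- An absolutely irreducible group whose commutators are scalar `r`-th roots of unity. -/
structure Nice (M : Subgroup (GL ι F)) (r : ℕ) : Prop where
  comm : ∀ x ∈ M, ∀ y ∈ M, ∃ c : F, c ^ r = 1 ∧
    (x : Matrix ι ι F) * y = c • ((y : Matrix ι ι F) * x)
  cent : ∀ A : Matrix ι ι F, (∀ y ∈ M, A * y = y * A) → ∃ c : F, A = c • 1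

theorem smul_inj_of_unit [Nonempty ι] {u : GL ι F} {c d : F}
    (h : c • (u : Matrix ι ι F) = d • (u : Matrix ι ι F)) : c = d :=
  smul_left_injective F u.ne_zero h

theorem conj_smul_one (g : GL ι F) (c : F) :
    (g : Matrix ι ι F) * (c • 1) * (g⁻¹ : GL ι F) = c • 1 := by
  rw [Matrix.mul_smul, Matrix.mul_one, Matrix.smul_mul, Units.mul_inv]

theorem Nice.exists_altP [Nonempty ι] (h : Nice M r) (hr : r ≠ 0) {g : GL ι F}
    (hg : g ∈ Subgroup.normalizer (M : Set (GL ι F))) : ∃ B : M → M → Additive Fˣ,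
      AltP B (M.normalizerMonoidHom ⟨g, hg⟩) ∧ (∀ x y, r • B x y = 0) ∧ ∀ x y : M,
        (x.1 : Matrix ι ι F) * y.1 = ((B x y).toMul : F) • ((y.1 : Matrix ι ι F) * x.1) := by
  choose c hc1 hc2 using fun x y : M => h.comm x x.2 y y.2
  have h0 : ∀ x y, c x y ≠ 0 := fun x y e => by simpa [e, hr] using hc1 x y
  have key : ∀ (x y : M) (d : F), (x.1 : Matrix ι ι F) * y.1 = d • ((y.1 : Matrix ι ι F) * x.1) →
      c x y = d := fun x y d e => smul_inj_of_unit (u := y.1 * x.1) ((hc2 x y).symm.trans e)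
  refine ⟨fun x y => Additive.ofMul (Units.mk0 _ (h0 x y)), ⟨fun x y z => ?_, fun x => ?_,
    fun x y => ?_, fun x y => ?_⟩, fun x y => ?_, hc2⟩
  · refine congrArg Additive.ofMul (Units.ext (key _ _ _ ?_))
    simp only [Subgroup.coe_mul, Units.val_mul]
    rw [mul_assoc, hc2 y z, Matrix.mul_smul, ← mul_assoc, hc2 x z, Matrix.smul_mul, smul_smul,
      mul_comm (c y z), mul_assoc]
    rfl
  · exact congrArg Additive.ofMul (Units.ext (key _ _ _ (one_smul _ _).symm))
  · refine congrArg Additive.ofMul (Units.ext (key _ _ _ ?_))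
    rw [hc2 y x, smul_smul]
    simp [h0]
  · refine congrArg Additive.ofMul (Units.ext (key _ _ _ ?_))
    have := congrArg (fun A => (g : Matrix ι ι F) * A * (g⁻¹ : GL ι F)) (hc2 x y)
    change ((g * x * g⁻¹ : GL ι F) : Matrix ι ι F) * (g * y * g⁻¹ : GL ι F) =
      c x y • (((g * y * g⁻¹ : GL ι F) : Matrix ι ι F) * (g * x * g⁻¹ : GL ι F))
    simpa [mul_assoc] using this
  · exact congrArg Additive.ofMul (Units.ext (by simpa using hc1 x y))

theorem toLin'_unit_injective (u : GL ι F) : Function.Injective (toLin' (u : Matrix ι ι F)) :=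
  fun v w e => by
    have := congrArg (fun x => ((u⁻¹ : GL ι F) : Matrix ι ι F) *ᵥ x) e
    simpa [mulVec_mulVec] using this

theorem toLin'_rel {A B C D : Matrix ι ι F} {c : F} (h : A * B = c • (C * D)) :
    toLin' A * toLin' B = c • (toLin' C * toLin' D) := by
  rw [End.mul_eq_comp, End.mul_eq_comp, ← toLin'_mul, ← toLin'_mul, h, map_smul]

theorem mem_eigen_iff {A : Matrix ι ι F} {c : F} {v : ι → F} :
    v ∈ End.eigenspace (toLin' A) c ↔ A *ᵥ v = c • v := End.mem_eigenspace_iff

theorem fix_of_eigen {g x : GL ι F} {c : F} (hc : c ≠ 0) {w : ι → F}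
    (h1 : w ∈ End.eigenspace (toLin' (g : Matrix ι ι F)) c)
    (h2 : toLin' (x : Matrix ι ι F) w ∈ End.eigenspace (toLin' (g : Matrix ι ι F)) c) :
    ((g * x * g⁻¹ * x⁻¹ : GL ι F) : Matrix ι ι F) *ᵥ toLin' (x : Matrix ι ι F) w =
      toLin' (x : Matrix ι ι F) w := by
  rw [mem_eigen_iff] at h1 h2
  refine smul_right_injective _ hc ?_
  simp only [toLin'_apply] at h2 ⊢
  conv_rhs => rw [← h2]
  rw [← mulVec_smul, ← mulVec_smul, ← h1, mulVec_mulVec, mulVec_mulVec, mulVec_mulVec,
    ← Units.val_mul, ← Units.val_mul, ← Units.val_mul]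
  congr 2
  group

theorem eigenspace_zero_unit (g : GL ι F) : End.eigenspace (toLin' (g : Matrix ι ι F)) 0 = ⊥ := by
  rw [End.eigenspace_zero, LinearMap.ker_eq_bot]
  exact toLin'_unit_injective g

theorem Nice.eig_weak (h : Nice M r) (hr : r.Prime) {g : GL ι F}
    (hg : g ∈ Subgroup.normalizer (M : Set (GL ι F))) (hns : ∀ z : F, (g : Matrix ι ι F) ≠ z • 1)
    (c : F) : r * (2 * finrank F (End.eigenspace (toLin' (g : Matrix ι ι F)) c)) ≤
      (r + 1) * Fintype.card ι := by
  rcases eq_or_ne c 0 with rfl | hc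
  · rw [eigenspace_zero_unit]; simp
  obtain ⟨x, hx, h1⟩ : ∃ x ∈ M, (g : Matrix ι ι F) * x ≠ x * g := by
    by_contra e
    push Not at e
    obtain ⟨z, hz⟩ := h.cent _ e
    exact hns z hz
  have hk : g * x * g⁻¹ * x⁻¹ ∈ M :=
    M.mul_mem ((Subgroup.mem_normalizer_iff.1 hg x).1 hx) (M.inv_mem hx)
  have h2 := two_mul_finrank_le (toLin'_unit_injective x)
    (U := End.eigenspace (toLin' ((g * x * g⁻¹ * x⁻¹ : GL ι F) : Matrix ι ι F)) 1)
    fun w h1 h2 => mem_eigen_iff.2 (by rw [one_smul]; exact fix_of_eigen hc h1 h2)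
  have h3 : g * x * g⁻¹ * x⁻¹ ≠ 1 := fun e => h1 (by
    rw [mul_inv_eq_one, mul_inv_eq_iff_eq_mul] at e
    exact congrArg Units.val e)
  generalize g * x * g⁻¹ * x⁻¹ = k at hk h2 h3
  rw [finrank_fintype_fun_eq_card] at h2
  suffices r * finrank F (End.eigenspace (toLin' (k : Matrix ι ι F)) 1) ≤ Fintype.card ι by
    nlinarith
  by_cases h4 : ∀ y ∈ M, (k : Matrix ι ι F) * y = y * k
  · obtain ⟨z, hz⟩ := h.cent _ h4
    have : End.eigenspace (toLin' (k : Matrix ι ι F)) 1 = ⊥ := (Submodule.eq_bot_iff _).2 fun v hv => by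
      rw [mem_eigen_iff, hz, smul_mulVec, one_mulVec, ← sub_eq_zero, ← sub_smul, smul_eq_zero,
        sub_eq_zero] at hv
      exact hv.resolve_left fun e => h3 (Units.ext (by simpa [e] using hz))
    rw [this]; simp
  · push Not at h4
    obtain ⟨y, hy, h5⟩ := h4
    obtain ⟨ζ, h6, h7⟩ := h.comm k hk y hy
    have := Fact.mk hr
    have h8 : IsPrimitiveRoot ζ r := by
      rw [← orderOf_eq_prime h6 (by rintro rfl; exact h5 (by simpa using h7))]
      exact IsPrimitiveRoot.orderOf ζ
    simpa using mul_finrank_eigen_le (toLin'_unit_injective y) h8 (toLin'_rel h7) one_ne_zero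

theorem two_mul_le_of_comm {g x : GL ι F} {ζ : F} (hζ : ζ ≠ 1)
    (h : (g : Matrix ι ι F) * x = ζ • ((x : Matrix ι ι F) * g)) (c : F) :
    2 * finrank F (End.eigenspace (toLin' (g : Matrix ι ι F)) c) ≤ Fintype.card ι := by
  rcases eq_or_ne c 0 with rfl | hc
  · rw [eigenspace_zero_unit]; simp
  simpa using two_mul_finrank_le (toLin'_unit_injective x) (U := ⊥) fun w h1 h2 => by
    rw [mem_eigen_iff] at h1 h2
    rw [toLin'_apply] at h2 ⊢
    rw [mulVec_mulVec, h, smul_mulVec, ← mulVec_mulVec, h1, mulVec_smul, smul_smul, ← sub_eq_zero,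
      ← sub_smul, smul_eq_zero, sub_eq_zero] at h2
    exact h2.resolve_left fun e => hζ (mul_right_cancel₀ hc (e.trans (one_mul c).symm))

theorem Nice.eig_strong (h : Nice M r) (hr : r.Prime) {g : GL ι F}
    (hg : g ∈ Subgroup.normalizer (M : Set (GL ι F))) (hns : ∀ z : F, (g : Matrix ι ι F) ≠ z • 1)
    {w : ℕ} (hw : ∃ z : F, (g : Matrix ι ι F) ^ w = z • 1)
    (hwr : (Odd w ∧ w.Coprime r) ∨ (w = r ∧ 5 ≤ r)) (c : F) :
    2 * finrank F (End.eigenspace (toLin' (g : Matrix ι ι F)) c) ≤ Fintype.card ι := by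
  rcases isEmpty_or_nonempty ι with hι | hι
  · exact absurd (Subsingleton.elim _ _) (hns 0)
  rcases eq_or_ne c 0 with rfl | hc
  · rw [eigenspace_zero_unit]; simp
  by_contra hlt
  obtain ⟨B, hB, hr1, hB1⟩ := h.exists_altP hr.ne_zero hg
  set σ := M.normalizerMonoidHom ⟨g, hg⟩ with hσ
  have hσ1 : ∀ x : M, ((σ x : M) : GL ι F) = g * x * g⁻¹ := fun x => rfl
  have hσ2 : σ ^ w = 1 := by
    obtain ⟨z, hz⟩ := hw
    rw [hσ, ← map_pow]
    ext x : 2
    refine Units.ext ?_
    change (((g ^ w : GL ι F) : Matrix ι ι F) * x.1 * ((g ^ w)⁻¹ : GL ι F)) = x.1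
    rw [Units.mul_inv_eq_iff_eq_mul, Units.val_pow_eq_pow_val, hz]
    simp
  have hz : ∀ x : M, (∀ y, B y x = 0) → ∃ z : F, (x.1 : Matrix ι ι F) = z • 1 := fun x hx =>
    h.cent _ fun y hy => by rw [hB1 ⟨y, hy⟩ x, hx]; simp
  have hfix : ∀ x : M, (∀ y, B y (σ x * x⁻¹) = 0) → (g : Matrix ι ι F) * x.1 = x.1 * g := fun x hx => by
    obtain ⟨z, hz⟩ := hz _ hx
    have e : (g : Matrix ι ι F) * x.1 = z • ((x.1 : Matrix ι ι F) * g) := by
      rw [← one_mul ((x.1 : Matrix ι ι F) * g), ← Matrix.smul_mul, ← hz, ← Units.val_mul,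
        ← Units.val_mul, ← Units.val_mul, Subgroup.coe_mul, hσ1]
      congr 1
      simp
    by_cases h1 : z = 1
    · simpa [h1] using e
    · exact absurd (two_mul_le_of_comm h1 e c) hlt
  obtain ⟨x, y, hxy⟩ : ∃ x y, B x (σ y) ≠ B x y := by
    by_contra e
    push Not at e
    obtain ⟨z, hz⟩ := h.cent g fun y hy => hfix ⟨y, hy⟩ fun x => by
      rw [hB.mul_right, hB.inv_right, e, add_neg_cancel]
    exact hns z hz
  have hcap : ∀ x : M, ∃ v ≠ 0, (g : Matrix ι ι F) *ᵥ v = c • v ∧
      (((σ x * x⁻¹ : M) : GL ι F) : Matrix ι ι F) *ᵥ v = v := fun x => by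
    by_contra e
    push Not at e
    refine hlt ?_
    simpa using two_mul_finrank_le (toLin'_unit_injective x.1) (U := ⊥) fun w h1 h2 => by
      by_contra e1
      exact e _ e1 (mem_eigen_iff.1 h2) (fix_of_eigen hc h1 h2)
  rcases hwr with ⟨h1, h2⟩ | ⟨rfl, h5⟩
  · refine hxy (hB.triv_of_coprime hr1 h1 h2 (by simp [hσ2]) (fun l => ?_) x y)
    obtain ⟨v, hv, h3, h4⟩ := hcap l
    generalize σ l * l⁻¹ = k at h4
    have h6 : ((σ k).1 : Matrix ι ι F) *ᵥ v = v := by
      refine smul_right_injective _ hc ?_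
      simp only
      rw [← mulVec_smul, ← h3, mulVec_mulVec, ← Units.val_mul, hσ1, inv_mul_cancel_right,
        Units.val_mul, ← mulVec_mulVec, h4]
    have h7 := congrArg (· *ᵥ v) (hB1 k (σ k))
    simp only [smul_mulVec, ← mulVec_mulVec, h4, h6] at h7
    rw [← sub_eq_zero, ← one_smul F v, smul_smul, ← sub_smul, smul_eq_zero, sub_eq_zero,
      mul_one] at h7
    exact congrArg Additive.ofMul (Units.ext (h7.resolve_right hv).symm)
  · obtain ⟨l, ⟨y, h1⟩, h2⟩ := hB.exists_of_unip hr hr1 (by simp [hσ2]) hxy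
    obtain ⟨v, hv, -, h4⟩ := hcap l
    have h3 := hfix _ h2
    have h6 : (g : Matrix ι ι F) * l.1 = (σ l * l⁻¹).1 * l.1 * g := by
      rw [← Units.val_mul, ← Units.val_mul, ← Units.val_mul, Subgroup.coe_mul, hσ1]
      congr 1
      simp
    generalize σ l * l⁻¹ = k at h1 h3 h4 h6
    have := Fact.mk hr
    have h7 : ∀ a b, ((B a b).toMul : F) ^ w = 1 := fun a b => by
      simpa using congrArg (fun u : Additive Fˣ => (u.toMul : F)) (hr1 a b)
    have h8 : IsPrimitiveRoot ((B k y).toMul : F) w := by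
      rw [← orderOf_eq_prime (h7 k y) fun e => h1 (by
        rw [hB.anti, neg_eq_zero]; exact congrArg Additive.ofMul (Units.ext e))]
      exact IsPrimitiveRoot.orderOf _
    have := NeZero.mk hr.ne_zero
    obtain ⟨t, -, ht⟩ := h8.eq_pow_of_pow_eq_one (h7 k l)
    have h9 : (k.1 : Matrix ι ι F) ^ w = 1 := by
      obtain ⟨z, hz⟩ := hz (k ^ w) fun a => by rw [hB.pow_right, hr1]
      have e : ∀ j : ℕ, (k.1 : Matrix ι ι F) ^ j *ᵥ v = v := fun j => by
        induction j with
        | zero => simp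
        | succ j ih => rw [pow_succ, ← mulVec_mulVec, h4, ih]
      have e1 := e w
      rw [Subgroup.coe_pow, Units.val_pow_eq_pow_val] at hz
      rw [hz, smul_mulVec, one_mulVec, ← sub_eq_zero] at e1
      nth_rewrite 2 [← one_smul F v] at e1
      rw [← sub_smul, smul_eq_zero, sub_eq_zero] at e1
      rw [hz, e1.resolve_right hv, one_smul]
    refine hlt ?_
    simpa using two_mul_finrank_le_of_weights (g := toLin' (g : Matrix ι ι F))
      (k := toLin' (k.1 : Matrix ι ι F)) (toLin'_unit_injective l.1) (toLin'_unit_injective y.1) hr h5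
      h8 (toLin'_rel (hB1 k y)) 
      (by rw [End.mul_eq_comp, End.mul_eq_comp, ← toLin'_mul, ← toLin'_mul, h3])
      (by rw [End.mul_eq_comp, End.mul_eq_comp, End.mul_eq_comp, ← toLin'_mul, ← toLin'_mul,
        ← toLin'_mul, h6]) (toLin'_rel (ht ▸ hB1 k l)) (by rw [← toLin'_pow, h9, toLin'_one]; rfl) hc

end Main

end Cfsg.Agent.Class.C6
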