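import Mathlib
import Cfsg.Agent.Class.Elus.Sub
import Cfsg.Agent.Class.Wall.SU
import Cfsg.Agent.Class.Sp.Simple
import Cfsg.Agent.Class.C6.Eig

/-!
Semisimple classes of `SL`, `SU`, `Sp` through eigenvalue multisets.
-/

set_option autoImplicit false

namespace Cfsg.Agent.Class.C6

open Polynomial Cfsg Cfsg.Agent.KSG Matrix Cfsg.Agent.Class.Spec Cfsg.Agent.Class.Wall

section Multi

variable {K : Type*} [Field K] {m : Multiset Kˣ} {Q : ℤ}

theorem class_two (h4 : m.card = 4) {s : Kˣ} (hs : ∀ α ∈ m, α ^ 2 = s ^ 2)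
    (hn : ¬ ∃ c, ∀ α ∈ m, α = c) :
    m = {s, s, -s, -s} ∨ m = {s, s, s, -s} ∨ m = {s, -s, -s, -s} := by
  have h1 : ∀ α ∈ m, α = s ∨ α = -s := fun α h => by
    have := congrArg Units.val (hs α h)
    simp only [Units.val_pow_eq_pow_val] at this
    exact (sq_eq_sq_iff_eq_or_eq_neg.1 this).imp Units.ext Units.ext
  obtain ⟨a, b, c, d, rfl⟩ := Multiset.card_eq_four.1 h4
  simp only [Multiset.insert_eq_cons, Multiset.mem_cons, Multiset.mem_singleton, forall_eq_or_imp,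
    forall_eq] at h1 hn
  simp only [Multiset.insert_eq_cons, ← Multiset.singleton_add]
  obtain ⟨ha | ha, hb | hb, hc | hc, hd | hd⟩ := h1 <;> rw [ha, hb, hc, hd] at hn ⊢ <;>
    first | (left; ac_rfl) | (right; left; ac_rfl) | (right; right; ac_rfl) | simp at hn

theorem zpow_eq_pow_of_emod {α : Kˣ} {k j : ℕ} (h : α ^ k = 1) (hQ : Q % k = j) : α ^ Q = α ^ j := by
  rw [← Int.mul_ediv_add_emod Q k, _root_.zpow_add, _root_.zpow_mul, _root_.zpow_natCast, h,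
    _root_.one_zpow, one_mul, hQ, _root_.zpow_natCast]

theorem class_three (h4 : m.card = 4) (hs : ∀ α ∈ m, α ^ 3 = 1) (hQ : m.map (· ^ Q) = m)
    (h3 : Q % 3 = 2) (hn : ¬ ∀ α ∈ m, α = 1) {ω : Kˣ} (hω : IsPrimitiveRoot ω 3) :
    m = {1, 1, ω, ω ^ 2} ∨ m = {ω, ω, ω ^ 2, ω ^ 2} := by
  classical
  have h1 : ∀ α ∈ m, α = 1 ∨ α = ω ∨ α = ω ^ 2 := fun α h => by
    obtain ⟨i, hi, rfl⟩ := hω.eq_pow_of_mem_rootsOfUnity ((mem_rootsOfUnity _ _).2 (hs α h))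
    interval_cases i <;> simp
  have h2 : m.map (· ^ 2) = m := by
    conv_rhs => rw [← hQ]
    exact Multiset.map_congr rfl fun α h => (zpow_eq_pow_of_emod (k := 3) (hs α h) h3).symm
  have e1 : ω ≠ 1 := hω.ne_one (by decide)
  have e2 : ω ^ 2 ≠ 1 := hω.pow_ne_one_of_pos_of_lt (by decide) (by decide)
  have e3 : ω ^ 2 ≠ ω := fun e => e1 (by simpa [pow_two] using e)
  have e4 : (ω ^ 2) ^ 2 = ω := by rw [← pow_mul, pow_succ, hω.pow_eq_one, one_mul]
  have h5 := congrArg (Multiset.count ω) h2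
  obtain ⟨a, b, c, d, rfl⟩ := Multiset.card_eq_four.1 h4
  simp only [Multiset.insert_eq_cons, Multiset.mem_cons, Multiset.mem_singleton, forall_eq_or_imp,
    forall_eq] at h1 hn
  clear hs hQ h2 h4
  simp only [Multiset.insert_eq_cons, ← Multiset.singleton_add]
  obtain ⟨ha | ha | ha, hb | hb | hb, hc | hc | hc, hd | hd | hd⟩ := h1 <;>
    rw [ha, hb, hc, hd] at h5 hn ⊢ <;>
    first | (left; ac_rfl) | (right; ac_rfl) | simp [e1, e4, e3.symm] at h5 hn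

theorem class_five (h4 : m.card = 4) (hs : ∀ α ∈ m, α ^ 5 = 1) (hQ : m.map (· ^ Q) = m)
    (h5 : Q % 5 = 2 ∨ Q % 5 = 3) (hn : ¬ ∀ α ∈ m, α = 1) :
    m.Nodup ∧ ∀ β, β ∈ m ↔ β ^ 5 = 1 ∧ β ≠ 1 := by
  classical
  push Not at hn
  obtain ⟨α, hα, h1⟩ := hn
  have := Fact.mk Nat.prime_five
  have hp : IsPrimitiveRoot α 5 := orderOf_eq_prime (hs α hα) h1 ▸ IsPrimitiveRoot.orderOf α
  have h2 : ∀ β ∈ m, β ^ 2 ∈ m := fun β hβ => by
    have e : ∀ γ ∈ m, γ ^ Q ∈ m := fun γ h => hQ ▸ Multiset.mem_map_of_mem (· ^ Q) h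
    rcases h5 with h5 | h5
    · exact zpow_eq_pow_of_emod (k := 5) (hs β hβ) h5 ▸ e β hβ
    · have e' : ∀ γ ∈ m, γ ^ 3 ∈ m := fun γ h => zpow_eq_pow_of_emod (k := 5) (hs γ h) h5 ▸ e γ h
      have := e' _ (e' _ (e' _ hβ))
      rwa [← pow_mul, ← pow_mul, pow_eq_pow_mod _ (hs β hβ)] at this
  have h3 : ∀ i, 0 < i → i < 5 → α ^ i ∈ m := fun i hi hi' => by
    have e2 := h2 _ hα
    have e4 := h2 _ e2
    have e3 := h2 _ e4
    rw [← pow_mul] at e4
    rw [← pow_mul, ← pow_mul, pow_eq_pow_mod _ (hs α hα)] at e3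
    interval_cases i
    exacts [by simpa using hα, e2, e3, e4]
  have h6 : ((Finset.Ioo 0 5).val.map fun i => α ^ i).Nodup :=
    Multiset.Nodup.map_on (fun i hi j hj e => hp.pow_inj (by simp at hi; omega)
      (by simp at hj; omega) e) (Finset.Ioo 0 5).nodup
  have h7 : ((Finset.Ioo 0 5).val.map fun i => α ^ i) = m :=
    Multiset.eq_of_le_of_card_le ((Multiset.le_iff_subset h6).2 fun β hβ => by
      obtain ⟨i, hi, rfl⟩ := Multiset.mem_map.1 hβ
      simp at hi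
      exact h3 i hi.1 hi.2) (by simp [h4])
  refine ⟨h7 ▸ h6, fun β => ⟨fun h => ⟨hs β h, ?_⟩, fun ⟨e1, e2⟩ => ?_⟩⟩
  · obtain ⟨i, hi, rfl⟩ := Multiset.mem_map.1 (h7 ▸ h)
    simp at hi
    exact hp.pow_ne_one_of_pos_of_lt hi.1.ne' hi.2
  · obtain ⟨i, hi, rfl⟩ := hp.eq_pow_of_mem_rootsOfUnity ((mem_rootsOfUnity _ _).2 e1)
    exact h3 i (Nat.pos_of_ne_zero (by rintro rfl; simp at e2)) hi

end Multi

variable {F K : Type*} [Field F] [Field K] [Algebra F K] {ι : Type} [Fintype ι] [DecidableEq ι]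
  {p : ℕ}

section Half

/-- The element `(1 + u)(1 + v) / 2`. -/
def hf (h2 : (2 : F) ≠ 0) (u v : GL ι F) (hu : u * u = -1) (hv : v * v = -1) : GL ι F where
  val := (2 : F)⁻¹ • ((1 + u) * (1 + v))
  inv := (2 : F)⁻¹ • ((1 - v) * (1 - u))
  val_inv := by
    have e : ∀ w : GL ι F, w * w = -1 → (1 + w : Matrix ι ι F) * (1 - w) = (2 : F) • 1 := fun w h => by
      have := congrArg Units.val h
      simp only [Units.val_mul, Units.val_neg, Units.val_one] at this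
      simp only [mul_sub, add_mul, this, two_smul, mul_one, one_mul]
      abel
    rw [smul_mul_smul_comm, mul_assoc, ← mul_assoc (1 + v : Matrix ι ι F), e v hv, smul_mul_assoc,
      one_mul, mul_smul_comm, e u hu, smul_smul, smul_smul]
    field_simp
    simp
  inv_val := by
    have e : ∀ w : GL ι F, w * w = -1 → (1 - w : Matrix ι ι F) * (1 + w) = (2 : F) • 1 := fun w h => by
      have := congrArg Units.val h
      simp only [Units.val_mul, Units.val_neg, Units.val_one] at this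
      simp only [mul_add, sub_mul, this, two_smul, mul_one, one_mul]
      abel
    rw [smul_mul_smul_comm, mul_assoc, ← mul_assoc (1 - u : Matrix ι ι F), e u hu, smul_mul_assoc,
      one_mul, mul_smul_comm, e v hv, smul_smul, smul_smul]
    field_simp
    simp

theorem hf_anti {h2 : (2 : F) ≠ 0} {u v : GL ι F} {hu : u * u = -1} {hv : v * v = -1}
    {τ : Matrix ι ι F → Matrix ι ι F} (hτ : IsAnti τ)
    (h : ∀ A, τ ((2 : F)⁻¹ • A) = (2 : F)⁻¹ • τ A) (h1 : τ u * u = 1) (h3 : τ v * v = 1) :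
    τ (hf h2 u v hu hv).1 * (hf h2 u v hu hv).1 = 1 := by
  have e : ∀ w : GL ι F, w * w = -1 → τ w * w = 1 → τ w = -w := fun w h h' => by
    rw [← Units.mul_left_inj w, h', neg_mul, ← Units.val_mul, h]
    simp
  rw [← (hf h2 u v hu hv).inv_val]
  congr 1
  simp only [hf, h, hτ.mul, hτ.add, hτ.one, e u hu h1, e v hv h3, sub_eq_add_neg]

end Half

variable [IsAlgClosed K]

theorem charpoly_map_eq {A : Matrix ι ι F} (hA : IsUnit A) : A.charpoly.map (algebraMap F K) =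
    ((jm K A).map fun x => (X - C (x.1 : K)) ^ x.2).prod := by
  rw [← prod_mdiv, jm]
  have h1 := fun b (hb : b ∈ mdiv A) => (isPP_of_mem_mdiv hb).monic
  have h2 := coeff_ne_of_mem_mdiv hA
  generalize mdiv A = s at h1 h2
  induction s using Multiset.induction_on with
  | empty => simp [jd]
  | cons b s ih =>
    rw [Multiset.prod_cons, Polynomial.map_mul, ih (fun c hc => h1 c (by simp [hc]))
      (fun c hc => h2 c (by simp [hc])), ← Multiset.singleton_add, jd_add, Multiset.map_add,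
      Multiset.prod_add, map_eq_prod_uroots (h1 b (by simp)) (h2 b (by simp)), ← prod_dc,
      dc_map fun α β e => Units.ext (C_injective (sub_right_injective e)), jd, jd,
      Multiset.singleton_bind, Multiset.map_map]
    rfl

theorem trace_ss {A : Matrix ι ι F} (hA : IsUnit A) {m : Multiset Kˣ} (h : jm K A = ss m) :
    algebraMap F K A.trace = (m.map Units.val).sum := by
  have h1 := trace_eq_sum_roots_charpoly (A.map (algebraMap F K))
  rw [charpoly_map, charpoly_map_eq hA, h, ss, Multiset.map_map] at h1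
  rw [AddMonoidHom.map_trace (algebraMap F K), h1, ← roots_multiset_prod_X_sub_C (m.map Units.val),
    Multiset.map_map]
  simp

theorem trace_inv_ss {x : GL ι F} {m : Multiset Kˣ} (h : jm K x.1 = ss m) :
    algebraMap F K (x⁻¹ : GL ι F).1.trace = (m.map fun α : Kˣ => ((α : K))⁻¹).sum := by
  have h1 := jm_invT (K := K) x
  rw [h, map_tw_ss] at h1
  have h2 := trace_ss (invT ι F x).isUnit h1
  rw [invT_val, trace_transpose] at h2
  simpa using h2

theorem det_ss {x : GL ι F} {m : Multiset Kˣ} (h : jm K x.1 = ss m) :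
    algebraMap F K x.1.det = (m.prod : Kˣ) := by
  rw [← jdet_jm x.isUnit, h, jdet_ss]

variable [Fintype F]

theorem exists_ss (hp : p.Prime) [CharP K p] {x : GL ι F} {k : ℕ} (hk : ¬ p ∣ k) {z : F}
    (hz : x.1 ^ k = z • 1) (hns : ∀ c : F, x.1 ≠ c • 1) :
    ∃ m : Multiset Kˣ, jm K x.1 = ss m ∧ m.card = Fintype.card ι ∧
      (∀ α ∈ m, (α : K) ^ k = algebraMap F K z) ∧ ¬ ∃ c, ∀ α ∈ m, α = c := by
  have h1 := valid_jm (K := K) x.isUnit
  have h2 := ((exists_smul_iff_PK (K := K) p hp x.isUnit k).1 ⟨z, hz⟩).eq_ss hp.one_lt hk h1.pos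
  generalize (jm K x.1).map Prod.fst = m at h2
  have h3 : z ≠ 0 := by
    rintro rfl
    rcases isEmpty_or_nonempty ι with h | h
    · exact hns 0 (Subsingleton.elim _ _)
    · exact (x.isUnit.pow k).ne_zero (by simpa using hz)
  have h4 := (pow_eq_smul_iff_KB (K := K) p hp x.isUnit k
    (c' := Units.mk0 _ ((map_ne_zero (algebraMap F K)).2 h3)) rfl).1 hz
  rw [h2] at h1 h4
  refine ⟨m, h2, (valid_ss.1 h1).1, fun α h => congrArg Units.val (KB_ss.1 h4 α h), fun ⟨c, hc⟩ => ?_⟩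
  obtain ⟨d, hd⟩ := (exists_smul_iff_PK (K := K) p hp x.isUnit 1).2
    ⟨c, h2 ▸ KB_ss.2 (by simpa using hc)⟩
  exact hns d (by simpa using hd)

theorem of_ss (hp : p.Prime) [CharP K p] {x : GL ι F} {m : Multiset Kˣ} (h : jm K x.1 = ss m) {k : ℕ}
    (h1 : ∀ α ∈ m, α ^ k = 1) (h2 : ¬ ∃ c, ∀ α ∈ m, α = c) :
    x ^ k = 1 ∧ ∀ c : F, x.1 ≠ c • 1 := by
  refine ⟨Units.ext ((pow_eq_one_iff_KB (K := K) p hp x.isUnit k).2 (h ▸ KB_ss.2 h1)), fun c hc => ?_⟩
  obtain ⟨d, hd⟩ := (exists_smul_iff_PK (K := K) p hp x.isUnit 1).1 ⟨c, by simpa using hc⟩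
  exact h2 ⟨d, fun α hα => (pow_one α).symm.trans (KB_ss.1 (h ▸ hd) α hα)⟩

variable (K) in
/-- `G` is `GL`, `GU` or `Sp`, and `T` is `SL`, `SU` or `Sp`. -/
structure Amb (G T : Subgroup (GL ι F)) (p : ℕ) (Q : ℤ) : Prop where
  le : T ≤ G
  det : ∀ x ∈ T, x.1.det = 1
  valid : ∀ x ∈ G, Valid Q (Fintype.card ι) (jm K x.1)
  fuse : ∀ x ∈ G, ∀ y ∈ G, ∀ k, ¬ p ∣ k → (∃ z : F, x.1 ^ k = z • 1) → jm K x.1 = jm K y.1 →
    ∃ g ∈ T, g⁻¹ * x * g = y
  half : ∀ (h2 : (2 : F) ≠ 0), ∀ u ∈ G, ∀ v ∈ G, ∀ hu hv, hf h2 u v hu hv ∈ G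

omit [IsAlgClosed K] [Fintype F] in
theorem squarefree_of_pow [Nonempty ι] [CharP F p] {x : GL ι F} {k : ℕ} (hk : ¬ p ∣ k) {z : F}
    (hz : x.1 ^ k = z • 1) : Squarefree (X ^ k - C z) :=
  (separable_X_pow_sub_C' p k z hk (by
    rintro rfl
    exact (x.isUnit.pow k).ne_zero (by simpa using hz))).squarefree

omit [IsAlgClosed K] in
theorem exists_commute_det [Nonempty ι] [CharP F p] {x : GL ι F} {k : ℕ} (hk : ¬ p ∣ k) {z : F}
    (hz : x.1 ^ k = z • 1) {d : F} (hd : d ≠ 0) :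
    ∃ c : GL ι F, c.1 * x.1 = x.1 * c.1 ∧ c.1.det = d := by
  obtain ⟨b, hb⟩ : ∃ b, b ∈ mdiv x.1 := Multiset.exists_mem_of_ne_zero fun e => by
    have := sum_natDegree_mdiv x.1
    rw [e] at this
    exact Fintype.card_ne_zero this.symm
  have h1 := isPP_of_mem_mdiv hb
  simpa using FG.exists_commute_det_pow (e := 1) (h1.irreducible_of_dvd_squarefree
    (squarefree_of_pow hk hz) ((pow_eq_smul_one_iff_mdiv _ _ _).1 hz b hb)) h1.monic
    (by simpa using hb) hd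

variable [Algebra.IsAlgebraic F K]

theorem amb_SL [Nonempty ι] [CharP F p] :
    Amb K ⊤ (Geo.specialLinear ι F) p (Fintype.card F) where
  le := le_top
  det _ := mem_specialLinear.1
  valid x _ := valid_jm x.isUnit
  half _ _ _ _ _ _ _ := trivial
  fuse x _ y _ k hk := fun ⟨z, hz⟩ e => by
    obtain ⟨g, rfl⟩ := isConj_iff.1 (isConj_GL_iff_mdiv.2 ((jm_eq_iff x.isUnit y.isUnit).1 e))
    obtain ⟨c, c1, c2⟩ := exists_commute_det hk hz g.det_ne_zero
    refine ⟨c * g⁻¹, mem_specialLinear.2 ?_, ?_⟩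
    · rw [Units.val_mul, det_mul, c2, ← det_mul, Units.mul_inv, det_one]
    · rw [_root_.mul_inv_rev, inv_inv, mul_assoc g, mul_assoc g, ← mul_assoc _ c, mul_assoc _ x,
        ← (Units.ext c1 : c * x = x * c), inv_mul_cancel_left, mul_assoc]

theorem amb_SU [CharP F p] {n q : ℕ} [U.UF F q] (hn : n ≠ 0) :
    Amb K (GU n F q) (GU n F q ⊓ Geo.specialLinear (Fin n) F) p (-q) where
  le := inf_le_left
  det _ h := mem_specialLinear.1 h.2
  valid x hx := by simpa using valid_jm_GU (K := K) (⟨x, hx⟩ : GU n F q)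
  half h2 u hu v hv h h' := pres_iff_cstar.2 (hf_anti (h2 := h2) (hu := h) (hv := h') isAnti_cstar
    (fun A => by ext; simp [cstar, map_ofNat]) (pres_iff_cstar.1 hu) (pres_iff_cstar.1 hv))
  fuse x hx y hy k hk := fun ⟨z, hz⟩ e => by
    have := NeZero.mk hn
    obtain ⟨g, hg⟩ := isConj_iff.1 ((GU_isConj_iff (A := ⟨x, hx⟩) (B := ⟨y, hy⟩)).2
      (isConj_iff_mdiv.2 ((jm_eq_iff x.isUnit y.isUnit).1 e)))
    obtain ⟨s, s0, hs⟩ := U.exists_conj_div_eq (U.detGU_mul_conj g⁻¹)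
    obtain ⟨t, t1, t2⟩ := exists_commute_det hk hz s0
    obtain ⟨c, c1, c2⟩ := exists_GU_commute_det ⟨x, hx⟩ t.isUnit t1.symm
    refine ⟨(c * g⁻¹).1, ⟨(c * g⁻¹).2, mem_specialLinear.2 ?_⟩, ?_⟩
    · rw [← U.coe_detGU, map_mul, Units.val_mul, c2, t2, hs]
      field_simp
    · have : (c * g⁻¹)⁻¹ * ⟨x, hx⟩ * (c * g⁻¹) = ⟨y, hy⟩ := by
        rw [← hg, _root_.mul_inv_rev, inv_inv, mul_assoc g, mul_assoc g, ← mul_assoc _ c, mul_assoc _ _ c,
          c1.eq, inv_mul_cancel_left, mul_assoc]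
      exact congrArg Subtype.val this

omit [Fintype F] [IsAlgClosed K] in
theorem mem_Sp_iff_anti {n : ℕ} {A : Matrix (Fin n ⊕ Fin n) (Fin n ⊕ Fin n) F} :
    A ∈ symplecticGroup (Fin n) F ↔ -(J (Fin n) F * Aᵀ * J (Fin n) F) * A = 1 := by
  rw [SymplecticGroup.mem_iff']
  refine ⟨fun h => by rw [neg_mul, mul_assoc, mul_assoc, ← mul_assoc _ _ A, h, J_squared, neg_neg],
    fun h => ?_⟩
  have := congrArg (J (Fin n) F * ·) h
  simpa [← mul_assoc, J_squared] using this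

omit [Fintype F] [IsAlgClosed K] in
theorem isAnti_Sp {n : ℕ} : IsAnti fun A : Matrix (Fin n ⊕ Fin n) (Fin n ⊕ Fin n) F =>
    -(J (Fin n) F * Aᵀ * J (Fin n) F) := by
  refine ⟨fun a b => ?_, fun a b => ?_, ?_⟩
  · simp [mul_add, add_mul, add_comm]
  · simp [mul_assoc, ← mul_assoc (J (Fin n) F) (J (Fin n) F), J_squared]
  · simp [J_squared]

theorem fuse_Sp [CharP F p] {n : ℕ} (hn : n ≠ 0) {x y : GL (Fin n ⊕ Fin n) F} (hx : x ∈ spGL n F)
    (hy : y ∈ spGL n F) {k : ℕ} (hk : ¬ p ∣ k) {z : F} (hz : x.1 ^ k = z • 1)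
    (e : jm K x.1 = jm K y.1) : ∃ g ∈ spGL n F, g⁻¹ * x * g = y := by
  have := NeZero.mk hn
  have h1 := squarefree_of_pow hk hz
  have h2 : aeval (toLin' x.1) (X ^ k - C z) = 0 := by
    rw [← toLin'_aeval]
    simp [hz, Algebra.algebraMap_eq_smul_one]
  have h3 := isConj_iff_mdiv.2 ((jm_eq_iff x.isUnit y.isUnit).1 e)
  obtain ⟨A, rfl⟩ : ∃ A, Sp.toGL A = x := ⟨⟨x, Sp.mem_spGL_iff.1 hx⟩, Units.ext rfl⟩
  obtain ⟨B, rfl⟩ : ∃ A, Sp.toGL A = y := ⟨⟨y, Sp.mem_spGL_iff.1 hy⟩, Units.ext rfl⟩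
  rw [Sp.coe_toGL] at h2 h3
  rw [Sp.coe_toGL] at h3
  obtain ⟨g, hg⟩ := isConj_iff.1 ((Sp_isConj_iff (fit_of_squarefree h1 h2 _)
    (fit_of_squarefree h1 h2 _)).2 h3)
  refine ⟨Sp.toGL g⁻¹, Sp.mem_spGL_iff.2 g⁻¹.2, ?_⟩
  rw [← map_inv, inv_inv, ← map_mul, ← map_mul, hg]

theorem amb_Sp [CharP F p] {n : ℕ} (hn : n ≠ 0) :
    Amb K (spGL n F) (spGL n F) p (Fintype.card F) where
  le := le_rfl
  det _ h := SymplecticGroup.det_eq_one (Sp.mem_spGL_iff.1 h)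
  valid x _ := valid_jm x.isUnit
  half _ _ hu _ hv _ _ := Sp.mem_spGL_iff.2 (mem_Sp_iff_anti.2 (hf_anti isAnti_Sp
    (fun A => by simp) (mem_Sp_iff_anti.1 (Sp.mem_spGL_iff.1 hu))
      (mem_Sp_iff_anti.1 (Sp.mem_spGL_iff.1 hv))))
  fuse _ hx _ hy _ hk := fun ⟨_, hz⟩ e => fuse_Sp hn hx hy hk hz e

end Cfsg.Agent.Class.C6
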